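import Cfsg.Agent.H737.EPO.PSys
import Cfsg.Agent.Nodes.Unique
import Cfsg.Agent.KFacts.RgdFilt

/-!
# The leading root lemma (helper12, for S5745 OWN q = 2, Claim A)

* `chain` : a subgroup `D` and a chain `F t` with `D ⊓ F t ≤ F (t + 1)` for the `t ∈ s`;
* `lead` : `x ∈ B n_w B`, `w ∈ W_J`, centralises `D ≤ V_J`: `|D| * ∏ |X α| ≤ |V_J|`, product over roots `α` outside `J`
  with `f (w α) < f α`.
-/

set_option autoImplicit false
set_option linter.unusedSectionVars false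

namespace Cfsg.Agent.H12.EP.CA

open scoped Pointwise

theorem relIndex_mul_card {Y : Type*} [Group Y] (A B : Subgroup Y) (h : A ≤ B) :
    A.relIndex B * Nat.card A = Nat.card B := by
  have h3 := Subgroup.relIndex_mul_relIndex ⊥ A B bot_le h
  rw [Subgroup.relIndex_bot_left, Subgroup.relIndex_bot_left] at h3
  rw [mul_comm, h3]

theorem chain {Y : Type*} [Group Y] [Finite Y] (D : Subgroup Y) (q : ℕ → ℕ) (F : ℕ → Subgroup Y)
    (hF : ∀ t, F (t + 1) ≤ F t) (m : ℕ) (s : Finset ℕ) (hs : ∀ t ∈ s, t < m ∧ D ⊓ F t ≤ F (t + 1) ∧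
      q t * Nat.card (F (t + 1)) ≤ Nat.card (F t)) : ∀ k t : ℕ, k + t = m →
    Nat.card ↥(D ⊓ F t) * ∏ u ∈ s.filter (fun u => t ≤ u), q u ≤ Nat.card (F t) := by
  intro k
  induction k with
  | zero =>
    intro t ht
    have h1 : s.filter (fun u => t ≤ u) = ∅ := by
      rw [Finset.filter_eq_empty_iff]
      intro u hu h2
      have := (hs u hu).1
      omega
    rw [h1, Finset.prod_empty, mul_one]
    exact Subgroup.card_le_of_le inf_le_right
  | succ k ih =>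
    intro t ht
    have h1 := ih (t + 1) (by omega)
    by_cases hts : t ∈ s
    · have h2 : s.filter (fun u => t ≤ u) = insert t (s.filter fun u => t + 1 ≤ u) := by
        ext u
        simp only [Finset.mem_filter, Finset.mem_insert]
        constructor
        · rintro ⟨hu, h3⟩
          by_cases h4 : u = t
          · exact Or.inl h4
          · exact Or.inr ⟨hu, by omega⟩
        · rintro (h3 | ⟨hu, h3⟩)
          · exact ⟨h3 ▸ hts, h3.ge⟩
          · exact ⟨hu, by omega⟩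
      rw [h2, Finset.prod_insert (by simp)]
      obtain ⟨-, h3, h4⟩ := hs t hts
      have h5 : D ⊓ F t = D ⊓ F (t + 1) := le_antisymm (le_inf inf_le_left h3) (inf_le_inf_left _ (hF t))
      rw [h5]
      calc Nat.card ↥(D ⊓ F (t + 1)) * (q t * ∏ u ∈ s.filter (fun u => t + 1 ≤ u), q u)
          = q t * (Nat.card ↥(D ⊓ F (t + 1)) * ∏ u ∈ s.filter (fun u => t + 1 ≤ u), q u) := by ring
        _ ≤ q t * Nat.card (F (t + 1)) := Nat.mul_le_mul_left _ h1
        _ ≤ _ := h4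
    · have h2 : s.filter (fun u => t ≤ u) = s.filter fun u => t + 1 ≤ u := by
        ext u
        simp only [Finset.mem_filter]
        constructor
        · rintro ⟨hu, h3⟩
          refine ⟨hu, ?_⟩
          have : u ≠ t := fun h4 => hts (h4 ▸ hu)
          omega
        · rintro ⟨hu, h3⟩
          exact ⟨hu, by omega⟩
      rw [h2]
      -- `|D ⊓ F t| |F (t+1)| ≤ |D ⊓ F (t+1)| |F t|`
      have h3 : Nat.card ↥(D ⊓ F t) * Nat.card (F (t + 1)) ≤ Nat.card ↥(D ⊓ F (t + 1)) * Nat.card (F t) := by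
        have h4 : (F (t + 1)).relIndex (D ⊓ F t) ≤ (F (t + 1)).relIndex (F t) := by
          have h5 : (F (t + 1)).relIndex (F t) ≠ 0 := Subgroup.FiniteIndex.index_ne_zero
          exact Subgroup.relIndex_le_of_le_right inf_le_right h5
        have h6 : (D ⊓ F (t + 1)).relIndex (D ⊓ F t) = (F (t + 1)).relIndex (D ⊓ F t) := by
          rw [← Subgroup.inf_relIndex_right (F (t + 1)) (D ⊓ F t)]
          congr 1
          apply le_antisymm
          · exact le_inf inf_le_right (inf_le_inf_left _ (hF t))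
          · exact le_inf (inf_le_right.trans inf_le_left) inf_le_left
        have h7 := relIndex_mul_card (D ⊓ F (t + 1)) (D ⊓ F t) (inf_le_inf_left _ (hF t))
        have h8 := relIndex_mul_card (F (t + 1)) (F t) (hF t)
        rw [← h7, ← h8, h6]
        calc (F (t + 1)).relIndex (D ⊓ F t) * Nat.card ↥(D ⊓ F (t + 1)) * Nat.card (F (t + 1))
            ≤ (F (t + 1)).relIndex (F t) * Nat.card ↥(D ⊓ F (t + 1)) * Nat.card (F (t + 1)) := by gcongr
          _ = _ := by ring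
      have h9 : 0 < Nat.card (F (t + 1)) := Nat.card_pos
      by_contra hcon
      push Not at hcon
      set P := ∏ u ∈ s.filter (fun u => t + 1 ≤ u), q u
      have h10 : Nat.card (F t) * Nat.card (F (t + 1)) < Nat.card ↥(D ⊓ F t) * P * Nat.card (F (t + 1)) := by gcongr
      have h11 : Nat.card ↥(D ⊓ F t) * P * Nat.card (F (t + 1)) ≤ Nat.card (F t) * Nat.card (F (t + 1)) := by
        calc Nat.card ↥(D ⊓ F t) * P * Nat.card (F (t + 1)) = Nat.card ↥(D ⊓ F t) * Nat.card (F (t + 1)) * P := by ring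
          _ ≤ Nat.card ↥(D ⊓ F (t + 1)) * Nat.card (F t) * P := by gcongr
          _ = Nat.card (F t) * (Nat.card ↥(D ⊓ F (t + 1)) * P) := by ring
          _ ≤ _ := Nat.mul_le_mul_left _ h1
      omega

end Cfsg.Agent.H12.EP.CA

namespace Cfsg.Agent.H12.EP.CA

open CoxeterSystem Cfsg.Agent.ChevalleyStructure.CoxeterGeom Cfsg.Agent.Tits.Roots Cfsg.Agent.Tits.Core
  Cfsg.Agent.Tits.RootComb Cfsg.Agent.Tits.Exchange Cfsg.Agent.Nodes.Reps Cfsg.Agent.Nodes.BNOf
  Cfsg.Agent.Nodes.StabComb Cfsg.Agent.Nodes.Bruhat Cfsg.Agent.Nodes.OppDec Cfsg.Agent.Nodes.LeviDec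
  Cfsg.Agent.Nodes.Coroot Cfsg.Agent.KFacts.RgdPar Cfsg.Agent.KFacts.RgdSL Cfsg.Agent.KFacts.RgdVJ
  Cfsg.Agent.KFacts.RgdCharP Cfsg.Agent.Nodes.Unique Cfsg.Agent.KFacts.RgdBorelTits Cfsg.Agent.KFacts.RgdFilt
open scoped commutatorElement

variable {I W Y : Type*} [Fintype I] [DecidableEq I] [Group W] [Group Y] {M : CoxeterMatrix I}
  {cs : CoxeterSystem M W} {A : I → I → ℤ} {h : IsCartan M A} {p : ℕ} {T : Subgroup Y} {n : I → Y}
  {X : (I → ℤ) → Subgroup Y}

/-- a set of roots outside `J` which is closed and absorbs positive roots -/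
structure Idl (cs : CoxeterSystem M W) (h : IsCartan M A) (J : Set I) (S : Set (I → ℤ)) : Prop where
  sub : S ⊆ NotJ cs h J
  closed : Closed cs h S
  abs : ∀ x ∈ S, ∀ y ∈ RGD.Pos cs h, ∀ z, IB cs h x y z → z ∈ S

theorem Idl.pos {J : Set I} {S : Set (I → ℤ)} (hS : Idl cs h J S) : S ⊆ RGD.Pos cs h := fun x hx =>
  ⟨(hS.sub hx).1, (hS.sub hx).2.1⟩

theorem ne_neg_of_pos {x y : I → ℤ} (hx : x ∈ RGD.Pos cs h) (hy : y ∈ RGD.Pos cs h) : x ≠ -y := by
  intro h1
  have h2 := hx.2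
  rw [h1] at h2
  exact hy.1.neg.not_pos_neg h2 (neg_nonpos.2 hy.2)

theorem closed_single {x : I → ℤ} (hx : x ∈ RGD.Pos cs h) : Closed cs h {x} := by
  rintro y hy z hz v hv
  rw [Set.mem_singleton_iff] at hy hz ⊢
  subst hy
  subst hz
  exact btwn_self hx.1 hv

/-- the preimage of a set of roots outside `J` under `w ∈ W_J` -/
def pre (cs : CoxeterSystem M W) (h : IsCartan M A) (w : W) (S : Set (I → ℤ)) : Set (I → ℤ) :=
  {x | rep cs h w x ∈ S}

theorem pre_sub {J : Set I} {w : W} (hw : w ∈ WJ cs J) {S : Set (I → ℤ)} (hS : Idl cs h J S) :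
    pre cs h w S ⊆ NotJ cs h J := by
  intro x hx
  have h1 := NotJ.act (inv_mem hw) (hS.sub hx)
  rwa [rep_inv_apply] at h1

theorem pre_closed {J : Set I} {w : W} {S : Set (I → ℤ)} (hS : Idl cs h J S) : Closed cs h (pre cs h w S) :=
  fun _ hx _ hy _ hz => hS.closed _ hx _ hy _ (hz.act w)

/-- no triple bonds -/
def NoTri (cs : CoxeterSystem M W) (h : IsCartan M A) : Prop := ∀ x, IsRoot cs h x → ∀ i, pairing A i x ≤ 2

theorem NoTri.le (hT : NoTri cs h) {x y z : I → ℤ} (hx : IsRoot cs h x) (hy : IsRoot cs h y) (hz : IsRoot cs h z)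
    {m a b : ℤ} (ha : 0 < a) (hb : 0 < b) (he : m • z = a • x + b • y) : m ≤ a + b := by
  obtain ⟨w, i, rfl⟩ := hz
  have h1 : m • sr i = a • rep cs h w⁻¹ x + b • rep cs h w⁻¹ y := by
    have h2 := congrArg (rep cs h w⁻¹) he
    rwa [map_smul, rep_inv_apply, map_add, map_smul, map_smul] at h2
  have h2 := congrArg (pairing A i) h1
  rw [pairing_add, pairing_smul, pairing_smul, pairing_smul, pairing_sr0, h.diag] at h2
  have h3 := hT _ (hx.act w⁻¹) i
  have h4 := hT _ (hy.act w⁻¹) i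
  nlinarith

/-- the roots outside `J` of level at least `t` -/
def Lev (cs : CoxeterSystem M W) (h : IsCartan M A) (J : Set I) (f : (I → ℤ) →+ ℤ) (t : ℕ) : Set (I → ℤ) :=
  {x | x ∈ NotJ cs h J ∧ (t : ℤ) ≤ f x}

theorem idl_level (hT : NoTri cs h) {J : Set I} {f : (I → ℤ) →+ ℤ} (hf : ∀ i, 0 ≤ f (sr i)) (t : ℕ) :
    Idl cs h J (Lev cs h J f t) where
  sub _ hx := hx.1
  closed := by
    rintro x ⟨⟨hx, hx0, k, hk, hxk⟩, htx⟩ y ⟨⟨hy, hy0, -⟩, hty⟩ z hz
    have hz0 := RGD.nonneg_of_btwn hx0 hy0 hz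
    obtain ⟨hzr, m, a, b, hm, ha, hb, he⟩ := hz
    have hmab := hT.le hx hy hzr ha hb he
    have ht : (0 : ℤ) ≤ t := Int.natCast_nonneg t
    refine ⟨⟨hzr, hz0, k, hk, ?_⟩, ?_⟩
    · have h1 := congrFun he k
      simp only [Pi.smul_apply, Pi.add_apply, smul_eq_mul] at h1
      have h2 := hy0 k
      simp only [Pi.zero_apply] at h2
      by_contra hcon
      push Not at hcon
      nlinarith
    · have h1 := congrArg f he
      rw [map_add, map_zsmul, map_zsmul, map_zsmul, smul_eq_mul, smul_eq_mul, smul_eq_mul] at h1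
      by_contra hcon
      push Not at hcon
      have h2 : m * f z < m * t := by nlinarith
      have h3 : m * (t : ℤ) ≤ (a + b) * t := by nlinarith
      nlinarith
  abs := by
    rintro x ⟨⟨hx, hx0, k, hk, hxk⟩, htx⟩ y ⟨hy, hy0⟩ z ⟨hz, i, j, hi, hj, rfl⟩
    have hfy : 0 ≤ f y := dom_nonneg hf hy0
    refine ⟨⟨hz, ?_, k, hk, ?_⟩, ?_⟩
    · intro l
      have h1 := hx0 l
      have h2 := hy0 l
      simp only [Pi.zero_apply] at h1 h2
      simp only [Pi.zero_apply, Pi.add_apply, Pi.smul_apply, smul_eq_mul]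
      positivity
    · have h2 := hy0 k
      simp only [Pi.zero_apply] at h2
      simp only [Pi.add_apply, Pi.smul_apply, smul_eq_mul]
      positivity
    · rw [map_add, map_zsmul, map_zsmul, smul_eq_mul, smul_eq_mul]
      have ht : (0 : ℤ) ≤ t := Int.natCast_nonneg t
      nlinarith

variable (R : RGD cs h p T n X) (hI : IntComm cs h X)

include R hI

theorem Idl.norm {J : Set I} {S : Set (I → ℤ)} (hS : Idl cs h J S) :
    RGD.B cs h T X ≤ Subgroup.normalizer (RGD.Sup X S : Set Y) := by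
  refine sup_le ?_ ?_
  · intro t ht
    rw [mem_normalizer_iff_cj, RGD.cj_Sup]
    unfold RGD.Sup
    congr 1
    funext z
    exact R.tor _ (hS.pos z.2).1 t ht
  · refine RGD.Sup_le fun y hy => ?_
    refine le_normalizer_of_comm (fun z : S => X z.1) (X y) ?_
    rintro a ha ⟨x, hx⟩ b hb
    have hxp := hS.pos hx
    by_cases hxy : y = x
    · subst hxy
      have h1 : X y ≤ RGD.Sup X S := RGD.le_Sup hx
      rw [commutatorElement_def]
      exact mul_mem (mul_mem (mul_mem (h1 ha) (h1 hb)) (inv_mem (h1 ha))) (inv_mem (h1 hb))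
    · have h1 := hI y x hy.1 hxp.1 hxy (ne_neg_of_pos hy hxp) a ha b hb
      have h2 : FS X {z | IB cs h y x z} ≤ RGD.Sup X S := FS_le fun z hz => RGD.le_Sup (hS.abs x hx y hy z (IB.symm hz))
      exact h2 h1

theorem Idl.conj_mem {J : Set I} {S : Set (I → ℤ)} (hS : Idl cs h J S) {b v : Y} (hb : b ∈ RGD.B cs h T X)
    (hv : v ∈ RGD.Sup X S) : b * v * b⁻¹ ∈ RGD.Sup X S :=
  (Subgroup.mem_normalizer_iff.1 (hS.norm R hI hb) v).1 hv

theorem Idl.conj_mem' {J : Set I} {S : Set (I → ℤ)} (hS : Idl cs h J S) {b v : Y} (hb : b ∈ RGD.B cs h T X)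
    (hv : v ∈ RGD.Sup X S) : b⁻¹ * v * b ∈ RGD.Sup X S := by
  have := hS.conj_mem R hI (inv_mem hb) hv
  rwa [inv_inv] at this

/-- **the leading root step** -/
theorem step [Finite W] {J : Set I} {w : W} (hw : w ∈ WJ cs J) {b₁ k b₂ : Y} (hb₁ : b₁ ∈ RGD.B cs h T X)
    (hk : Rp cs R.nsys w k) (hb₂ : b₂ ∈ RGD.B cs h T X) {D : Subgroup Y}
    (hD : ∀ d ∈ D, (b₁ * k * b₂) * d * (b₁ * k * b₂)⁻¹ = d) {S S' : Set (I → ℤ)} (hS : Idl cs h J S)
    (hS' : Idl cs h J S') (hSS : ∀ x ∈ S, rep cs h w x ∈ S → x ∈ S') : D ⊓ RGD.Sup X S ≤ RGD.Sup X S' := by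
  rintro d ⟨hdD, hdS⟩
  have h1 : b₂ * d * b₂⁻¹ ∈ RGD.Sup X S := hS.conj_mem R hI hb₂ hdS
  have h2 : k * (b₂ * d * b₂⁻¹) * k⁻¹ ∈ RGD.Sup X S := by
    have e : k * (b₂ * d * b₂⁻¹) * k⁻¹ = b₁⁻¹ * ((b₁ * k * b₂) * d * (b₁ * k * b₂)⁻¹) * b₁ := by group
    rw [e, hD d hdD]
    exact hS.conj_mem' R hI hb₁ hdS
  have h3 : b₂ * d * b₂⁻¹ ∈ RGD.Sup X (pre cs h w S) := by
    have h4 := conj_mem_Sup' R hk (S := S) (S' := pre cs h w S) (fun x hx => (hS.pos hx).1)
      (fun x hx => by show rep cs h w (rep cs h w⁻¹ x) ∈ S; rwa [rep_apply_inv]) h2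
    have e : k⁻¹ * (k * (b₂ * d * b₂⁻¹) * k⁻¹) * k = b₂ * d * b₂⁻¹ := by group
    rwa [e] at h4
  have h5 : b₂ * d * b₂⁻¹ ∈ RGD.Sup X (S ∩ pre cs h w S) := by
    have h6 := inf_eq R hS.pos (fun x hx => ⟨(pre_sub hw hS hx).1, (pre_sub hw hS hx).2.1⟩) hS.closed
      (pre_closed (w := w) hS)
    rw [← h6]
    exact ⟨h1, h3⟩
  have h6 : b₂ * d * b₂⁻¹ ∈ RGD.Sup X S' := RGD.Sup_mono (fun x hx => hSS x hx.1 hx.2) h5
  have h7 := hS'.conj_mem' R hI hb₂ h6
  have e : b₂⁻¹ * (b₂ * d * b₂⁻¹) * b₂ = d := by group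
  rwa [e] at h7

omit hI in
/-- the sizes -/
theorem size [Finite W] [Finite Y] {J : Set I} {S S' : Set (I → ℤ)} (hS : Idl cs h J S) (hS' : Idl cs h J S')
    (hle : S' ⊆ S) {x : I → ℤ} (hx : x ∈ S) (hxS : x ∉ S') :
    Nat.card (X x) * Nat.card (RGD.Sup X S') ≤ Nat.card (RGD.Sup X S) := by
  have h1 : X x ⊓ RGD.Sup X S' = ⊥ := by
    have h2 := inf_eq R (S := {x}) (Set.singleton_subset_iff.2 (hS.pos hx)) hS'.pos (closed_single (hS.pos hx))
      hS'.closed
    rw [Set.singleton_inter_eq_empty.2 hxS] at h2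
    have h3 : RGD.Sup X (∅ : Set (I → ℤ)) = ⊥ := le_bot_iff.1 (RGD.Sup_le fun z hz => absurd hz (by simp))
    have h4 : X x ≤ RGD.Sup X {x} := RGD.le_Sup (Set.mem_singleton x)
    exact le_bot_iff.1 ((inf_le_inf_right _ h4).trans (h2.trans h3).le)
  rw [← Nat.card_prod]
  refine Nat.card_le_card_of_injective (fun z : X x × RGD.Sup X S' =>
    (⟨(z.1 : Y) * z.2, mul_mem (RGD.le_Sup hx z.1.2) (RGD.Sup_mono hle z.2.2)⟩ : RGD.Sup X S)) ?_
  rintro ⟨a, b⟩ ⟨a', b'⟩ hab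
  have h3 : (a : Y) * b = a' * b' := Subtype.ext_iff.1 hab
  have h4 : (a' : Y)⁻¹ * a = b' * (b : Y)⁻¹ := by
    rw [eq_mul_inv_iff_mul_eq, mul_assoc, h3, inv_mul_cancel_left]
  have h5 : (a' : Y)⁻¹ * a ∈ X x ⊓ RGD.Sup X S' :=
    Subgroup.mem_inf.2 ⟨mul_mem (inv_mem a'.2) a.2, by rw [h4]; exact mul_mem b'.2 (inv_mem b.2)⟩
  rw [h1, Subgroup.mem_bot] at h5
  have h6 : a = a' := Subtype.ext (inv_mul_eq_one.1 h5).symm
  subst h6
  have h7 : b = b' := Subtype.ext (mul_left_cancel h3)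
  rw [h7]

/-- **The leading root lemma.** `x = b₁ k b₂`, `k` over `w ∈ W_J`, centralises `D ≤ V_J`; `f` is dominant and separates
the roots of `s` from the other roots outside `J`; `f (w α) < f α` for `α ∈ s`. -/
theorem lead [Finite W] [Finite Y] (hT : NoTri cs h) {J : Set I} {w : W} (hw : w ∈ WJ cs J) {b₁ k b₂ : Y}
    (hb₁ : b₁ ∈ RGD.B cs h T X) (hk : Rp cs R.nsys w k) (hb₂ : b₂ ∈ RGD.B cs h T X) {D : Subgroup Y}
    (hD : ∀ d ∈ D, (b₁ * k * b₂) * d * (b₁ * k * b₂)⁻¹ = d) (hDV : D ≤ VJ cs h X J) {f : (I → ℤ) →+ ℤ}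
    (hf : ∀ i, 0 ≤ f (sr i)) (s : Finset ℕ) (c : ℕ) (hs : ∀ t ∈ s, ∃ α ∈ NotJ cs h J, f α = t ∧
      (∀ β ∈ NotJ cs h J, f β = t → β = α) ∧ f (rep cs h w α) < t ∧ c ≤ Nat.card (X α)) :
    Nat.card D * c ^ s.card ≤ Nat.card (VJ cs h X J) := by
  obtain ⟨m, hm⟩ : ∃ m, ∀ t ∈ s, t < m := ⟨s.sup id + 1, fun t ht => Nat.lt_succ_of_le (Finset.le_sup (f := id) ht)⟩
  have hL := fun t => idl_level (J := J) hT hf t
  have hmono : ∀ t, Lev cs h J f (t + 1) ⊆ Lev cs h J f t := fun t x hx => ⟨hx.1, by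
    have := hx.2
    push_cast at this
    omega⟩
  have h1 := chain D (fun _ => c) (fun t => RGD.Sup X (Lev cs h J f t)) (fun t => RGD.Sup_mono (hmono t)) m s ?_ m 0
    (by omega)
  · have h2 : Lev cs h J f 0 = NotJ cs h J := by
      ext x
      refine ⟨fun hx => hx.1, fun hx => ⟨hx, ?_⟩⟩
      rw [Nat.cast_zero]
      exact dom_nonneg hf hx.2.1
    have h3 : s.filter (fun u => 0 ≤ u) = s := Finset.filter_true_of_mem fun u _ => Nat.zero_le u
    rw [h3, Finset.prod_const] at h1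
    simp only [h2] at h1
    have h4 : D ⊓ RGD.Sup X (NotJ cs h J) = D := inf_eq_left.2 hDV
    rw [h4] at h1
    exact h1
  · intro t ht
    obtain ⟨α, hα, hft, hu, hlt, hc⟩ := hs t ht
    refine ⟨hm t ht, ?_, ?_⟩
    · refine step R hI hw hb₁ hk hb₂ hD (hL t) (hL (t + 1)) ?_
      intro x hx hwx
      refine ⟨hx.1, ?_⟩
      push_cast
      by_contra hcon
      push Not at hcon
      have h2 : f x = t := le_antisymm (by omega) hx.2
      have h3 := hu x hx.1 h2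
      subst h3
      exact absurd hwx.2 (not_le.2 hlt)
    · refine le_trans (Nat.mul_le_mul_right _ hc) (size R (hL t) (hL (t + 1)) (hmono t) ⟨hα, hft.ge⟩ ?_)
      rintro ⟨-, h2⟩
      push_cast at h2
      omega

end Cfsg.Agent.H12.EP.CA
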